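import Cfsg.Agent.H453.TW.Exc
import Cfsg.Agent.H911.TW.Cnt

/-!
# The exceptional characters at `y`, type `G₂` (S2452, helper453)
-/

set_option autoImplicit false
set_option linter.unusedSectionVars false

open scoped ComplexConjugate Pointwise
open Cfsg

namespace Cfsg.Agent.H453.TW

open CoxeterSystem Cfsg.Agent.ChevalleyStructure.CoxeterGeom Cfsg.Agent.Tits.Roots Cfsg.Agent.Tits.Core
  Cfsg.Agent.Tits.Exchange Cfsg.Agent.Nodes.Reps Cfsg.Agent.Nodes.BNOf Cfsg.Agent.Nodes.StabComb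
  Cfsg.Agent.Nodes.Bruhat Cfsg.Agent.Nodes.OppDec Cfsg.Agent.Nodes.LeviDec
open Cfsg.Agent.H678.CCExact Cfsg.Agent.Characters.CCCounting

variable {W Y : Type*} [Group W] [Group Y] {cs : CoxeterSystem CoxeterMatrix.G₂ W} {A : Fin 2 → Fin 2 → ℤ}
  {h : IsCartan CoxeterMatrix.G₂ A} {p : ℕ} {T : Subgroup Y} {n : Fin 2 → Y} {X : (Fin 2 → ℤ) → Subgroup Y}
  (R : RGD cs h p T n X)

include R

/-- **`hc2` of `glue`.** -/
theorem exc_g2 [Finite W] [Fintype Y] (hG : GG cs h T X = ⊤) {S : Subgroup Y}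
    (hAP : ∀ a ∈ S, a ≠ 1 → ∀ J : Set (Fin 2), J ≠ Set.univ → ∀ g : Y, g⁻¹ * a * g ∉ PJ cs h T X J)
    {K : Set (Fin 2)} (hK : K ≠ Set.univ) {y : Y} (hy : y ∈ PJ cs h T X K)
    (hf : ∀ v ∈ VJ cs h X K, y * v * y⁻¹ = v → v = 1) [Fintype (IrrCharacter Y)] (s : ℕ) (D : CCData S s 4)
    (hs : 12 < s) : ∀ ψ ∈ D.R, (ψ : Y → ℂ) y = 0 := by
  refine exc_frame R hG D ?_ (fun J hJ a ha ha1 g => hAP a ha ha1 J hJ g) hK hy hf
  rw [Nat.card_congr (Cfsg.Agent.H911.TW.g2Equiv cs).toEquiv, Nat.card_eq_fintype_card, DihedralGroup.card]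
  exact hs

end Cfsg.Agent.H453.TW
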